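import Mathlib
import Cfsg.Agent.Lib.Helper95.BRA.Defs
import Cfsg.Agent.Lib.Helper16.LocalRing

/-!
# BRA package [C3d] (S4484): the arithmetic core, few distinct eigenvalues
-/

set_option autoImplicit false

namespace Cfsg.Agent.Lib.Helper72.BRA

open Cfsg Cfsg.Agent.Lib.Helper74.Jordan Cfsg.Agent.Lib.Helper95.BRA Cfsg.Agent.Lib.Helper16

/-- `z - 1` lies in the local ideal of a `p`-modular ideal for every `p`-th root of unity `z`. -/
theorem memLocalIdeal_root_sub_one72 {p : ℕ} {M : Ideal AlgInt} (hM : IsPModular p M) {z : ℂ}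
    (hz : z ^ p = 1) : MemLocalIdeal M (z - 1) := by
  have hprime := isPrime_of_isPModular hM
  have hp := hM.1
  have hzint : IsIntegral ℤ z := by
    refine ⟨Polynomial.X ^ p - Polynomial.C 1, Polynomial.monic_X_pow_sub_C 1 hp.ne_zero, ?_⟩
    simp [hz]
  let a : AlgInt := ⟨z, hzint⟩
  have ha : (a : ℂ) = z := rfl
  have hap : a ^ p = 1 := by
    apply Subtype.ext
    push_cast
    rw [ha, hz]
  have hR : MemLocalRing M (z - 1) := by
    have := memLocalRing_sub hprime (memLocalRing_of_algInt hprime a) (memLocalRing_one hprime)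
    rwa [ha] at this
  apply memLocalIdeal_of_pow hprime hR (n := p)
  obtain ⟨r, hr⟩ := exists_add_pow_prime_eq hp a (-1)
  have hmemM : (a - 1) ^ p ∈ M := by
    rw [sub_eq_add_neg, hr, hap]
    rcases hp.eq_two_or_odd' with h2 | hodd
    · have : (1 : AlgInt) + (-1) ^ p + (p : AlgInt) * a * (-1) * r
          = (p : AlgInt) * (1 - a * r) := by
        subst h2
        push_cast
        ring
      rw [this]
      exact M.mul_mem_right _ hM.2.2
    · have : (1 : AlgInt) + (-1) ^ p + (p : AlgInt) * a * (-1) * r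
          = (p : AlgInt) * (- (a * r)) := by
        rw [hodd.neg_one_pow]
        ring
      rw [this]
      exact M.mul_mem_right _ hM.2.2
  have := memLocalIdeal_of_mem hprime hmemM
  have hc : (((a - 1) ^ p : AlgInt) : ℂ) = (z - 1) ^ p := by
    push_cast
    rw [ha]
  rwa [hc] at this

theorem pkgC3d : PkgC3d := by
  intro p M hM m D h K hD hh hpK hhK hsum hdiv hmem
  have hprime := isPrime_of_isPModular hM
  have hp := hM.1
  have hp0 : 0 < p := hp.pos
  obtain ⟨i0, hi0, hmin⟩ := Finset.exists_min_image (Finset.range p) m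
    ⟨0, Finset.mem_range.mpr hp0⟩
  have hs : ∀ i ∈ Finset.range p, ∃ s : ℕ, m i = m i0 + D * s := by
    intro i hi
    have h1 := hdiv i (Finset.mem_range.mp hi) i0 (Finset.mem_range.mp hi0)
    have h2 := hmin i hi
    obtain ⟨c, hc⟩ := h1
    have hc0 : 0 ≤ c := by
      by_contra hneg
      push Not at hneg
      have h3 : (D : ℤ) * c < 0 := mul_neg_of_pos_of_neg (by exact_mod_cast hD) hneg
      have h4 : (m i : ℤ) < m i0 := by linarith
      exact absurd (by exact_mod_cast h4) (not_lt.mpr h2)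
    refine ⟨c.toNat, ?_⟩
    have h5 : ((c.toNat : ℕ) : ℤ) = c := Int.toNat_of_nonneg hc0
    zify
    rw [h5]
    linarith
  choose! s hs using hs
  have hsumS : D * h = p * m i0 + D * ∑ i ∈ Finset.range p, s i := by
    rw [← hsum, Finset.sum_congr rfl hs, Finset.sum_add_distrib, Finset.sum_const,
      Finset.card_range, smul_eq_mul, ← Finset.mul_sum]
  have hSle : ∑ i ∈ Finset.range p, s i ≤ h := by
    have h1 : D * ∑ i ∈ Finset.range p, s i ≤ D * h := by
      rw [hsumS]
      exact Nat.le_add_left _ _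
    exact Nat.le_of_mul_le_mul_left h1 hD
  have hζ : IsPrimitiveRoot (rt p) p := rt_prim hp.ne_zero
  have hgeom : ∑ i ∈ Finset.range p, rt p ^ i = 0 := hζ.geom_sum_eq_zero hp.one_lt
  have hmβ : ∑ i ∈ Finset.range p, (m i : ℂ) * rt p ^ i
      = (D : ℂ) * ∑ i ∈ Finset.range p, (s i : ℂ) * rt p ^ i := by
    rw [Finset.mul_sum]
    have h1 : ∀ i ∈ Finset.range p, (m i : ℂ) * rt p ^ i
        = (m i0 : ℂ) * rt p ^ i + (D : ℂ) * ((s i : ℂ) * rt p ^ i) := by
      intro i hi
      rw [hs i hi]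
      push_cast
      ring
    rw [Finset.sum_congr rfl h1, Finset.sum_add_distrib, ← Finset.mul_sum, hgeom, mul_zero,
      zero_add]
  obtain ⟨K', rfl⟩ := hhK
  have hpK' : ¬ p ∣ K' := fun hd => hpK (Dvd.dvd.mul_left hd h)
  have hD0 : (D : ℂ) ≠ 0 := by exact_mod_cast hD.ne'
  have hh0 : (h : ℂ) ≠ 0 := by exact_mod_cast hh.ne'
  have hmem' : MemLocalIdeal M ((K' : ℂ) *
      ((h : ℂ) - ∑ i ∈ Finset.range p, (s i : ℂ) * rt p ^ i)) := by
    have h1 : ((h * K' : ℕ) : ℂ) - ((h * K' : ℕ) : ℂ) *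
        (∑ i ∈ Finset.range p, (m i : ℂ) * rt p ^ i) / ((D * h : ℕ) : ℂ)
        = (K' : ℂ) * ((h : ℂ) - ∑ i ∈ Finset.range p, (s i : ℂ) * rt p ^ i) := by
      rw [hmβ]
      push_cast
      field_simp
    rwa [h1] at hmem
  have hβS : MemLocalIdeal M ((∑ i ∈ Finset.range p, (s i : ℂ) * rt p ^ i)
      - ((∑ i ∈ Finset.range p, s i : ℕ) : ℂ)) := by
    have h1 : (∑ i ∈ Finset.range p, (s i : ℂ) * rt p ^ i)
        - ((∑ i ∈ Finset.range p, s i : ℕ) : ℂ)
        = ∑ i ∈ Finset.range p, (s i : ℂ) * (rt p ^ i - 1) := by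
      push_cast
      rw [← Finset.sum_sub_distrib]
      apply Finset.sum_congr rfl
      intro i _
      ring
    rw [h1]
    apply memLocalIdeal_sum hprime
    intro i _
    apply memLocalIdeal_mul_left hprime (memLocalRing_natCast hprime _)
    apply memLocalIdeal_root_sub_one72 hM
    rw [← pow_mul, mul_comm, pow_mul, hζ.pow_eq_one, one_pow]
  have hKS : MemLocalIdeal M (((K' * (h - ∑ i ∈ Finset.range p, s i) : ℕ)) : ℂ) := by
    have h1 := memLocalIdeal_add hprime hmem'
      (memLocalIdeal_mul_left hprime (memLocalRing_natCast hprime K') hβS)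
    have h2 : (K' : ℂ) * ((h : ℂ) - ∑ i ∈ Finset.range p, (s i : ℂ) * rt p ^ i)
        + (K' : ℂ) * ((∑ i ∈ Finset.range p, (s i : ℂ) * rt p ^ i)
          - ((∑ i ∈ Finset.range p, s i : ℕ) : ℂ))
        = ((K' * (h - ∑ i ∈ Finset.range p, s i) : ℕ) : ℂ) := by
      rw [Nat.cast_mul, Nat.cast_sub hSle]
      ring
    rwa [h2] at h1
  have hdvd : p ∣ K' * (h - ∑ i ∈ Finset.range p, s i) := (memLocalIdeal_natCast_iff hM _).mp hKS
  have hdvd' : p ∣ h - ∑ i ∈ Finset.range p, s i := (hp.dvd_mul.mp hdvd).resolve_left hpK'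
  rcases Nat.lt_or_ge (∑ i ∈ Finset.range p, s i) h with hlt | hge
  · left
    have h1 := Nat.le_of_dvd (by omega) hdvd'
    omega
  · right
    have hSh : ∑ i ∈ Finset.range p, s i = h := le_antisymm hSle hge
    have hμ0 : m i0 = 0 := by
      rw [hSh] at hsumS
      have h1 : p * m i0 = 0 := by omega
      rcases Nat.mul_eq_zero.mp h1 with h2 | h2
      · omega
      · exact h2
    rw [← hSh]
    calc ((Finset.range p).filter (fun i => m i ≠ 0)).card
        = ∑ i ∈ (Finset.range p).filter (fun i => m i ≠ 0), 1 := by simp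
      _ ≤ ∑ i ∈ (Finset.range p).filter (fun i => m i ≠ 0), s i := by
          apply Finset.sum_le_sum
          intro i hi
          rw [Finset.mem_filter] at hi
          have h1 := hs i hi.1
          rw [hμ0, zero_add] at h1
          by_contra hlt
          have h2 : s i = 0 := by omega
          apply hi.2
          rw [h1, h2, mul_zero]
      _ ≤ ∑ i ∈ Finset.range p, s i :=
          Finset.sum_le_sum_of_subset (Finset.filter_subset _ _)

end Cfsg.Agent.Lib.Helper72.BRA
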